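import Mathlib

/-!
# Landau's theorem: the class number bounds the group order
-/

set_option autoImplicit false

namespace GT

theorem exists_bound_of_sum_inv_eq (k : ℕ) : ∀ q : ℚ, ∃ N : ℕ, ∀ (s : Multiset ℕ),
    s.card ≤ k → (∀ n ∈ s, 0 < n) → (s.map fun n : ℕ => ((n : ℚ))⁻¹).sum = q → ∀ n ∈ s, n ≤ N := by
  induction k with
  | zero =>
    intro q
    refine ⟨0, fun s hs _ _ n hn => ?_⟩
    rw [Nat.le_zero, Multiset.card_eq_zero] at hs
    subst hs
    simp at hn
  | succ k ih =>
    intro q
    choose f hf using ih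
    set B : ℕ := ⌊((k + 1 : ℕ) : ℚ) / q⌋₊ with hB
    refine ⟨max B ((Finset.range (B + 1)).sup fun m => f (q - (m : ℚ)⁻¹)), ?_⟩
    intro s hs hpos hsum n hn
    obtain ⟨m, hm, hmin⟩ := Multiset.exists_min_image (fun x : ℕ => x) (s := s)
      (by rintro rfl; simp at hn)
    have hm0 : (0 : ℚ) < m := by exact_mod_cast hpos m hm
    have hq : 0 < q := by
      rw [← hsum]
      refine lt_of_lt_of_le (inv_pos.2 hm0) (Multiset.single_le_sum ?_ _
        (Multiset.mem_map_of_mem (fun n : ℕ => ((n : ℚ))⁻¹) hm))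
      intro x hx
      obtain ⟨y, hy, rfl⟩ := Multiset.mem_map.1 hx
      positivity
    have hle : q ≤ ((k + 1 : ℕ) : ℚ) * (m : ℚ)⁻¹ := by
      rw [← hsum]
      have h1 := Multiset.sum_le_card_nsmul (s.map fun n : ℕ => ((n : ℚ))⁻¹) ((m : ℚ)⁻¹) (by
        intro x hx
        obtain ⟨y, hy, rfl⟩ := Multiset.mem_map.1 hx
        exact inv_anti₀ hm0 (by exact_mod_cast hmin y hy))
      rw [Multiset.card_map, nsmul_eq_mul] at h1
      refine h1.trans (mul_le_mul_of_nonneg_right (by exact_mod_cast hs) (by positivity))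
    have hmB : m ≤ B := by
      rw [hB]
      apply Nat.le_floor
      rw [le_div_iff₀ hq]
      calc (m : ℚ) * q ≤ m * (((k + 1 : ℕ) : ℚ) * (m : ℚ)⁻¹) :=
            mul_le_mul_of_nonneg_left hle hm0.le
        _ = _ := by field_simp
    obtain ⟨t, rfl⟩ := Multiset.exists_cons_of_mem hm
    rcases Multiset.mem_cons.1 hn with rfl | hn'
    · exact le_max_of_le_left hmB
    · refine le_max_of_le_right (le_trans ?_
        (Finset.le_sup (f := fun m : ℕ => f (q - (m : ℚ)⁻¹))
          (Finset.mem_range.2 (Nat.lt_succ_of_le hmB))))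
      refine hf _ t (by simpa using hs) (fun x hx => hpos x (Multiset.mem_cons_of_mem hx)) ?_ n hn'
      rw [Multiset.map_cons, Multiset.sum_cons] at hsum
      rw [← hsum]; ring

universe u

/-- Landau: a finite group with at most `k` conjugacy classes has bounded order. -/
theorem exists_card_le_of_card_conjClasses_le (k : ℕ) : ∃ N : ℕ, ∀ (G : Type u) [Group G]
    [Finite G], Nat.card (ConjClasses G) ≤ k → Nat.card G ≤ N := by
  obtain ⟨N, hN⟩ := exists_bound_of_sum_inv_eq k 1
  refine ⟨N, fun G _ _ hk => ?_⟩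
  classical
  have := Fintype.ofFinite G
  have := Fintype.ofFinite (ConjClasses G)
  let c : ConjClasses G → ℕ := fun K =>
    Nat.card (Subgroup.centralizer ({(Quotient.out K : G)} : Set G))
  have hc : ∀ K : ConjClasses G, (K.carrier.ncard : ℚ) = Nat.card G * (c K : ℚ)⁻¹ := by
    intro K
    have h1 : K.carrier = MulAction.orbit (ConjAct G) (Quotient.out K : G) := by
      ext x
      rw [ConjAct.mem_orbit_conjAct, ConjClasses.mem_carrier_iff_mk_eq,
        ← ConjClasses.mk_eq_mk_iff_isConj]
      rw [show ConjClasses.mk (Quotient.out K : G) = K from Quotient.out_eq K]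
    have h2 := MulAction.index_stabilizer (ConjAct G) (Quotient.out K : G)
    have h3 : (MulAction.stabilizer (ConjAct G) (Quotient.out K : G)).index =
        (Subgroup.centralizer ({(Quotient.out K : G)} : Set G)).index := by
      rw [Subgroup.centralizer_eq_comap_stabilizer]
      exact (Subgroup.index_comap_of_surjective _ ConjAct.toConjAct.surjective).symm
    have h4 := (Subgroup.centralizer ({(Quotient.out K : G)} : Set G)).card_mul_index
    have h5 : (c K : ℚ) ≠ 0 := by exact_mod_cast (Nat.card_pos (α := Subgroup.centralizer _)).ne'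
    rw [h1, ← h2, h3, ← h4]
    push_cast
    field_simp
    rfl
  have hsum : ∑ K : ConjClasses G, (c K : ℚ)⁻¹ = 1 := by
    have h1 := Group.sum_card_conj_classes_eq_card G
    rw [finsum_eq_sum_of_fintype] at h1
    have h2 : (∑ K : ConjClasses G, (K.carrier.ncard : ℚ)) = Nat.card G := by exact_mod_cast h1
    simp only [hc] at h2
    rw [← Finset.mul_sum] at h2
    have h3 : (Nat.card G : ℚ) ≠ 0 := by exact_mod_cast (Nat.card_pos (α := G)).ne'
    exact mul_left_cancel₀ h3 (by rw [h2, mul_one])
  have h := hN (Finset.univ.val.map c) (by simpa [Nat.card_eq_fintype_card] using hk)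
    (by
      intro n hn
      obtain ⟨K, -, rfl⟩ := Multiset.mem_map.1 hn
      exact Nat.card_pos)
    (by rw [Multiset.map_map]; exact hsum) (c (ConjClasses.mk 1))
    (Multiset.mem_map_of_mem c (Finset.mem_univ_val _))
  have h1 : (Quotient.out (ConjClasses.mk (1 : G)) : G) = 1 := by
    have : IsConj (Quotient.out (ConjClasses.mk (1 : G)) : G) 1 :=
      ConjClasses.mk_eq_mk_iff_isConj.1 (Quotient.out_eq _)
    exact isConj_one_left.1 this
  have h2 : c (ConjClasses.mk 1) = Nat.card G := by
    simp only [c]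
    rw [h1]
    have : Subgroup.centralizer ({(1 : G)} : Set G) = ⊤ := by
      ext x; simp [Subgroup.mem_centralizer_singleton_iff]
    rw [this, Subgroup.card_top]
  rwa [h2] at h

end GT
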