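import Cfsg.Agent.Lib.Char.Omega

/-!
# Counting arguments for groups with an abelian TI subgroup of index two in its normalizer
-/

set_option autoImplicit false
set_option linter.unusedSectionVars false

namespace GT

open MulAction

variable {G : Type*} [Group G] [Finite G] {X : Type*} [MulAction G X]

theorem ncard_smul_eq_le (x y : X) : {g : G | g • x = y}.ncard ≤ Nat.card (stabilizer G x) := by
  rcases {g : G | g • x = y}.eq_empty_or_nonempty with h | ⟨g₀, h⟩
  · simp [h]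
  · exact Set.ncard_le_ncard_of_injOn (t := stabilizer G x) (g₀⁻¹ * ·)
      (fun g hg => show (g₀⁻¹ * g) • x = x by rw [mul_smul, show g • x = y from hg, inv_smul_eq_iff, h])
      fun a _ b _ h => mul_left_cancel h

theorem ncard_swap_le [Finite X] (a : X) {m : ℕ}
    (hm : ∀ b ≠ a, Nat.card (stabilizer G (a, b)) ≤ m) :
    {g : G | g • a ≠ a ∧ g • g • a = a}.ncard ≤ (Nat.card X - 1) * m := by
  classical
  have := Fintype.ofFinite X
  have := Fintype.ofFinite G
  rw [Set.ncard_eq_toFinset_card', Nat.card_eq_fintype_card, ← Finset.card_univ,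
    ← Finset.card_erase_of_mem (Finset.mem_univ a), mul_comm]
  refine Finset.card_le_mul_card_image_of_maps_to (f := (· • a)) (fun g hg => by
    simpa using (Set.mem_toFinset.1 hg).1) m fun b hb => le_trans ?_
      ((ncard_smul_eq_le (a, b) (b, a)).trans (hm b (Finset.ne_of_mem_erase hb)))
  rw [← Set.ncard_coe_finset]
  refine Set.ncard_le_ncard fun g hg => ?_
  obtain ⟨h, rfl⟩ := Finset.mem_filter.1 hg
  exact Prod.ext rfl (Set.mem_toFinset.1 h).2

theorem card_dvd_of_fixedBy [Finite X] {f : ℕ} (h : ∀ g : G, g ≠ 1 → Nat.card (fixedBy X g) = f) :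
    Nat.card G ∣ Nat.card X + (Nat.card G - 1) * f := by
  classical
  have := Fintype.ofFinite X
  have := Fintype.ofFinite G
  have h1 := sum_card_fixedBy_eq_card_orbits_mul_card_group G X
  simp only [← Nat.card_eq_fintype_card] at h1
  rw [← Finset.add_sum_erase _ _ (Finset.mem_univ 1), Finset.sum_const_nat fun g hg =>
    h g (Finset.ne_of_mem_erase hg), Finset.card_erase_of_mem (Finset.mem_univ 1),
    Finset.card_univ, ← Nat.card_eq_fintype_card, fixedBy_one_eq_univ, Nat.card_univ] at h1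
  exact Dvd.intro_left _ h1.symm

theorem card_le_mul_of_inverts [Finite X] {E : Subgroup G} (hodd : Odd (Nat.card E)) {s : G}
    (hs : ∀ x ∈ E, s * x = x⁻¹ * s) {Y : Set X} {x₀ : X} (hY : ∀ x ∈ E, ∀ y ∈ Y, x • y ∈ Y)
    (hf : ∀ x ∈ E, x ≠ 1 → ∀ y ∈ Y, x • y ≠ y) {r : ℕ} (hr : Y.ncard ≤ r * Nat.card E)
    (h0 : s • x₀ = x₀) {K : Subgroup G}
    (hK : ∀ c ∈ K, c * s = s * c ∧ (c • x₀ = x₀ ∨ c • x₀ ∈ Y)) :
    Nat.card K ≤ (r + 1) * Nat.card ↥(stabilizer G x₀ ⊓ K) := by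
  have h1 : {y ∈ Y | s • y = y}.ncard * Nat.card E ≤ Y.ncard := by
    rw [← Nat.card_coe_set_eq, ← Nat.card_prod, ← Nat.card_coe_set_eq]
    refine Nat.card_le_card_of_injective (fun c => ⟨c.2.1 • c.1.1, hY _ c.2.2 _ c.1.2.1⟩) ?_
    rintro ⟨⟨y, hy, h1⟩, x⟩ ⟨⟨y', hy', h2⟩, x'⟩ h
    obtain rfl : y' = (x'⁻¹ * x).1 • y := by
      rw [Subgroup.coe_mul, mul_smul, Subgroup.coe_inv, eq_inv_smul_iff]
      exact (congrArg Subtype.val h).symm
    rw [← mul_smul, hs _ (x'⁻¹ * x).2, mul_smul, h1, inv_smul_eq_iff, ← mul_smul] at h2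
    have h3 : (x'⁻¹ * x) ^ 2 = 1 := Subtype.ext (by_contra fun h3 =>
      hf _ ((x'⁻¹ * x) ^ 2).2 h3 y hy (by rw [sq]; exact h2.symm))
    obtain ⟨n, hn⟩ := hodd
    have h4 := pow_card_eq_one' (x := x'⁻¹ * x)
    rw [hn, pow_succ, pow_mul, h3, one_pow, one_mul, inv_mul_eq_one] at h4
    simp [h4]
  have h2 : (orbit K x₀).ncard ≤ r + 1 := (Set.ncard_le_ncard (t := insert x₀ {y ∈ Y | s • y = y})
    (by
      rintro _ ⟨c, rfl⟩
      obtain ⟨h2, h3⟩ := hK c c.2
      exact h3.imp_right fun h3 => ⟨h3, show s • c.1 • x₀ = c.1 • x₀ by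
        rw [← mul_smul, ← h2, mul_smul, h0]⟩)).trans
    ((Set.ncard_insert_le _ _).trans (Nat.succ_le_succ
      (Nat.le_of_mul_le_mul_right (h1.trans hr) Nat.card_pos)))
  rw [← (stabilizer K x₀).card_mul_index, index_stabilizer, mul_comm]
  refine Nat.mul_le_mul h2 (le_of_eq ?_)
  rw [← Subgroup.card_map_of_injective K.subtype_injective, ← Subgroup.subgroupOf_map_subtype]
  rfl

/-- An abelian TI subgroup of index two in its normalizer. -/
structure DTI (E L : Subgroup G) : Prop where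
  le : E ≤ L
  card : Nat.card L = 2 * Nat.card E
  comm : IsMulCommutative E
  ti : ∀ x ∈ E, x ≠ 1 → ∀ g, g⁻¹ * x * g ∈ E → g ∈ L

namespace DTI

variable {E L : Subgroup G} (D : DTI E L)
include D

theorem relIndex : E.relIndex L = 2 := by
  have := (E.subgroupOf L).card_mul_index
  rw [Nat.card_congr (Subgroup.subgroupOfEquivOfLe D.le).toEquiv, D.card, mul_comm 2] at this
  exact Nat.eq_of_mul_eq_mul_left Nat.card_pos this

theorem mul_mem_iff {a b : G} (ha : a ∈ L) (hb : b ∈ L) : a * b ∈ E ↔ (a ∈ E ↔ b ∈ E) :=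
  Subgroup.mul_mem_iff_of_index_two D.relIndex (a := ⟨a, ha⟩) (b := ⟨b, hb⟩)

theorem conj_mem {g x : G} (hg : g ∈ L) (hx : x ∈ E) : g⁻¹ * x * g ∈ E := by
  rw [D.mul_mem_iff (mul_mem (inv_mem hg) (D.le hx)) hg, mul_mem_cancel_right hx, inv_mem_iff]

theorem mul_eq {x y : G} (hx : x ∈ E) (hy : y ∈ E) : x * y = y * x :=
  congrArg Subtype.val (D.comm.is_comm.comm ⟨x, hx⟩ ⟨y, hy⟩)

theorem mem_of_odd {x : G} (hx : x ∈ L) (h : Odd (orderOf x)) : x ∈ E := by
  obtain ⟨n, hn⟩ := h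
  have := pow_mem ((D.mul_mem_iff hx hx).2 Iff.rfl) (n + 1)
  rwa [← sq, ← pow_mul, mul_add, mul_one, ← one_add_one_eq_two, ← add_assoc, one_add_one_eq_two,
    ← hn, pow_succ, pow_orderOf_eq_one, one_mul] at this

theorem smul_eq_iff {x : G} (hx : x ∈ E) (h1 : x ≠ 1) (h : Odd (orderOf x)) (q : G ⧸ L) :
    x • q = q ↔ q = ↑(1 : G) := by
  obtain ⟨g, rfl⟩ := QuotientGroup.mk_surjective q
  rw [MulAction.Quotient.smul_mk, eq_comm, QuotientGroup.eq, QuotientGroup.eq, smul_eq_mul,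
    ← mul_assoc, mul_one, inv_mem_iff]
  exact ⟨fun h2 => D.ti x hx h1 g (D.mem_of_odd h2 (by
    rwa [← (MulAut.conj g).orderOf_eq, MulAut.conj_apply, show g * _ * g⁻¹ = x by group])),
    fun h2 => D.le (D.conj_mem h2 hx)⟩

theorem coprime_index {y : G} (hy : y ∈ E) (h : Odd (orderOf y)) :
    (orderOf y).Coprime E.index := by
  have h1 := card_dvd_of_fixedBy (G := Subgroup.zpowers y) (X := G ⧸ L) (f := 1) fun x hx =>
    Nat.card_eq_one_iff_exists.2 ⟨⟨↑(1 : G), ?_⟩, fun q => Subtype.ext ?_⟩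
  · rw [Nat.card_zpowers, mul_one] at h1
    rw [← Subgroup.relIndex_mul_index D.le, D.relIndex]
    refine (Nat.coprime_two_right.2 h).mul_right (Nat.Coprime.symm ?_)
    have h2 := (Nat.dvd_add_right (Nat.gcd_dvd_left L.index _)).1 ((Nat.gcd_dvd_right _ _).trans h1)
    exact Nat.dvd_one.1 ((Nat.dvd_add_right h2).1
      (Nat.sub_add_cancel (orderOf_pos y) ▸ Nat.gcd_dvd_right _ _))
  all_goals
    have h2 := D.smul_eq_iff ((Subgroup.zpowers_le.2 hy) x.2) (by simpa using hx)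
      (h.of_dvd_nat (orderOf_dvd_of_mem_zpowers x.2))
  · exact (h2 _).2 rfl
  · exact (h2 _).1 q.2

theorem inverts (hp : commutator G = ⊤) (hodd : Odd (Nat.card E)) {s x : G} (hs : s ∈ L)
    (hs' : s ∉ E) (hx : x ∈ E) : s⁻¹ * x * s = x⁻¹ := by
  have h1 := D.conj_mem hs hx
  set y := x * (s⁻¹ * x * s) with hy
  have h2 : y ∈ E := mul_mem hx h1
  have h3 : ∀ g ∈ E, g⁻¹ * y * g = y := fun g hg => by
    rw [mul_assoc, D.mul_eq h2 hg, inv_mul_cancel_left]
  have h4 : ∀ g ∈ L, g⁻¹ * y * g = y := fun g hg => by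
    by_cases h : g ∈ E
    · exact h3 g h
    have h4 := D.mul_eq hx ((D.mul_mem_iff hs hs).2 Iff.rfl)
    rw [show g⁻¹ * y * g =
      (s⁻¹ * g)⁻¹ * ((s⁻¹ * x * s) * ((s * s)⁻¹ * (x * (s * s)))) * (s⁻¹ * g) by rw [hy]; group,
      h4, inv_mul_cancel_left, ← D.mul_eq hx h1]
    exact h3 _ ((D.mul_mem_iff (inv_mem hs) hg).2 (by simp [h, hs']))
  let _ : CommGroup E := { mul_comm := D.comm.is_comm.comm }
  have h5 := MonoidHom.transfer_eq_pow (MonoidHom.id E) y fun k g h => by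
    by_cases h0 : y ^ k = 1
    · simp [h0]
    · have := congrArg (· ^ k) (h4 g (D.ti _ (pow_mem h2 k) h0 g h))
      rwa [← inv_inv g, inv_inv g⁻¹, conj_pow, inv_inv] at this
  rw [Abelianization.commutator_subset_ker _ (hp.ge (Subgroup.mem_top y))] at h5
  have h6 := (D.coprime_index h2 (hodd.of_dvd_nat (E.orderOf_dvd_natCard h2))).eq_one_of_dvd
    (orderOf_dvd_of_pow_eq_one (congrArg Subtype.val h5).symm)
  exact eq_inv_of_mul_eq_one_right (orderOf_eq_one_iff.1 h6)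

theorem exists_fixed (hE : E ≠ ⊥) (hf : ∀ x ∈ E, x ≠ 1 → Nat.card (fixedBy X x) = 1) :
    ∃ ω : X, (∀ g ∈ L, g • ω = ω) ∧ ∀ x ∈ E, x ≠ 1 → ∀ a, x • a = a → a = ω := by
  obtain ⟨x, hx, h1⟩ := E.bot_or_exists_ne_one.resolve_left hE
  obtain ⟨⟨ω, h2⟩, h3⟩ := Nat.card_eq_one_iff_exists.1 (hf x hx h1)
  have h4 : ∀ y ∈ E, y • ω = ω := fun y hy => congrArg Subtype.val (h3 ⟨y • ω, by
    rw [mem_fixedBy, ← mul_smul, D.mul_eq hx hy, mul_smul, h2]⟩)
  refine ⟨ω, fun g hg => congrArg Subtype.val (h3 ⟨g • ω, ?_⟩), fun y hy h5 a ha => ?_⟩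
  · simpa [mul_smul, inv_smul_eq_iff] using h4 _ (D.conj_mem hg hx)
  · obtain ⟨b, hb⟩ := Nat.card_eq_one_iff_exists.1 (hf y hy h5)
    exact congrArg Subtype.val ((hb ⟨a, ha⟩).trans (hb ⟨ω, h4 y hy⟩).symm)

theorem card_le_five [Finite X] [IsPretransitive G X] (hp : commutator G = ⊤)
    (hodd : Odd (Nat.card E)) (hE : E ≠ ⊥) (hf : ∀ x ∈ E, x ≠ 1 → Nat.card (fixedBy X x) = 1)
    (hX : Nat.card X = 2 * Nat.card E + 1) {N : Subgroup G} (hN : Nat.card N = Nat.card X * Nat.card E)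
    (hi : N.index = Nat.card X + 1)
    (hst : ∀ q ≠ ((1 : G) : G ⧸ N), Nat.card (stabilizer G (((1 : G) : G ⧸ N), q)) ≤ Nat.card E) :
    Nat.card E ≤ 5 := by
  obtain ⟨ω, h1, h2⟩ := D.exists_fixed hE hf
  have he := Nat.card_pos (α := E)
  obtain ⟨s, hs, hs'⟩ := SetLike.exists_of_lt (D.le.lt_of_ne fun h => by
    have := D.card; rw [← h] at this; omega)
  have h0 : ∀ x ∈ E, x = x⁻¹ → x = 1 := fun x hx h => orderOf_eq_one_iff.1
    ((Nat.coprime_two_right.2 (hodd.of_dvd_nat (E.orderOf_dvd_natCard hx))).eq_one_of_dvd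
      (orderOf_dvd_of_pow_eq_one (by rw [sq, ← eq_inv_iff_mul_eq_one]; exact h)))
  have h3 : s * s = 1 := h0 _ ((D.mul_mem_iff hs hs).2 Iff.rfl) (by
    rw [← D.inverts hp hodd hs hs' ((D.mul_mem_iff hs hs).2 Iff.rfl)]; group)
  have h4 : ∀ x ∈ E, s * x = x⁻¹ * s := fun x hx => by
    rw [← D.inverts hp hodd (inv_mem hs) (by simpa) hx, inv_inv, inv_mul_cancel_right]
  set C := Subgroup.centralizer ({s} : Set G)
  have hG := N.card_mul_index
  have h5 : C.index ≤ Nat.card X * Nat.card E := by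
    rw [← CT.card_conj_eq_index, ← Nat.add_sub_cancel (n := Nat.card X) (m := 1), ← hi]
    refine (Set.ncard_le_ncard (s := {x | IsConj s x}) fun g hg => ?_).trans (ncard_swap_le _ hst)
    obtain ⟨c, rfl⟩ := isConj_iff.1 hg
    have h5 : c * s * c⁻¹ * (c * s * c⁻¹) = 1 := by rw [conj_mul, h3]; simp
    refine ⟨fun h => hs' ?_, by rw [← mul_smul, h5, one_smul]⟩
    have h6 := N.orderOf_dvd_natCard (stabilizer_quotient N ▸ h : c * s * c⁻¹ ∈ N)
    rw [show s = 1 by simpa using orderOf_eq_one_iff.1 ((Nat.coprime_two_right.2 (Odd.of_dvd_nat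
      (hN ▸ (hX ▸ odd_two_mul_add_one _).mul hodd) h6)).eq_one_of_dvd
      (orderOf_dvd_of_pow_eq_one (by rw [sq, h5])))]
    exact one_mem E
  have h6 := card_le_mul_of_inverts hodd h4 (Y := {ω}ᶜ) (fun x hx y hy h => hy (by
      rw [Set.mem_singleton_iff, ← h1 x (D.le hx), smul_left_cancel_iff] at h; exact h))
    (fun x hx h y hy h' => hy (h2 x hx h y h')) (r := 2) (by
      have := Set.ncard_add_ncard_compl ({ω} : Set X)
      rw [Set.ncard_singleton] at this
      omega) (h1 s hs) (K := C) fun c hc => ⟨Subgroup.mem_centralizer_singleton_iff.1 hc, em _⟩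
  set H := stabilizer G ω
  have h7 := card_le_mul_of_inverts hodd h4 (Y := orbit H ((1 : G) : G ⧸ L) \ {↑(1 : G)})
    (x₀ := ↑(1 : G)) (fun x hx y hy => ⟨mem_orbit_of_mem_orbit (⟨x, h1 x (D.le hx)⟩ : H) hy.1,
      fun h => hy.2 (by
        rw [Set.mem_singleton_iff, ← mem_stabilizer_iff.1 ((stabilizer_quotient L).ge (D.le hx)),
          smul_left_cancel_iff] at h
        exact h)⟩)
    (fun x hx h y hy h' => hy.2 ((D.smul_eq_iff hx h
      (hodd.of_dvd_nat (E.orderOf_dvd_natCard hx)) y).1 h')) (r := 1) (by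
      have h7 := (stabilizer H ((1 : G) : G ⧸ L)).card_mul_index
      have h8 := H.card_mul_index
      rw [index_stabilizer_of_transitive, ← hG, hN, hi, mul_assoc, mul_comm (Nat.card X)] at h8
      rw [index_stabilizer, show stabilizer H ((1 : G) : G ⧸ L) = L.subgroupOf H from
        congrArg (Subgroup.subgroupOf · H) (stabilizer_quotient L),
        Nat.card_congr (Subgroup.subgroupOfEquivOfLe (K := H) h1).toEquiv, D.card,
        Nat.eq_of_mul_eq_mul_right (by omega) h8, hX] at h7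
      rw [Set.ncard_sdiff_singleton_of_mem (mem_orbit_self _)]
      have := Nat.eq_of_mul_eq_mul_left (k := Nat.card E + 1) (by omega) (h7.trans (by ring))
      omega) ((stabilizer_quotient L).ge hs) (K := H ⊓ C) fun c hc =>
    ⟨Subgroup.mem_centralizer_singleton_iff.1 hc.2, (em _).imp_right fun h =>
      ⟨mem_orbit _ (⟨c, hc.1⟩ : H), h⟩⟩
  have h8 : Nat.card ↥(stabilizer G ((1 : G) : G ⧸ L) ⊓ (H ⊓ C)) ≤ 2 := by
    refine (Set.ncard_le_ncard (t := {1, s}) fun c hc => ?_).trans (Set.ncard_insert_le _ _ |>.trans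
      (by simp))
    have h8 := Subgroup.mem_centralizer_singleton_iff.1 hc.2.2
    have h9 := (stabilizer_quotient L).le hc.1
    by_cases h : c ∈ E
    · exact Or.inl (h0 c h (mul_right_cancel (h8.trans (h4 c h))))
    have h10 := (D.mul_mem_iff h9 hs).2 (by simp [h, hs'])
    refine Or.inr (mul_right_cancel ((h0 _ h10 (mul_right_cancel (b := s) ?_)).trans h3.symm))
    rw [← h4 _ h10, ← mul_assoc, h8]
  have h9 := C.card_mul_index
  rw [← hG, hN, hi, mul_comm] at h9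
  have h10 := Nat.le_of_mul_le_mul_left (h9.ge.trans (Nat.mul_le_mul_right _ h5))
    (Nat.mul_pos (by omega) he)
  omega

theorem eq_five [Finite X] [FaithfulSMul G X] (h2 : IsMultiplyPretransitive G X 2) {p t n : ℕ}
    (hp : p.Prime) (hX : Nat.card X = p) (ht : Nat.card E * t + 1 = p) (ht' : Even t)
    (he : Even (Nat.card E)) (hf : ∀ x ∈ E, x ≠ 1 → Nat.card (fixedBy X x) = 1)
    (hP : ∀ g : G, p ∣ orderOf g → orderOf g = p ∧ ∀ a : X, g • a ≠ a)
    (hG : Nat.card G = p * Nat.card E * n) (hn : n ≡ 1 [MOD p]) :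
    p = 5 ∧ 2 * Nat.card E + 1 = p ∧ n = p + 1 := by
  classical
  have := Fintype.ofFinite X
  have := Fintype.ofFinite G
  have : Fact (Nat.Prime 2) := ⟨Nat.prime_two⟩
  rw [is_two_pretransitive_iff] at h2
  have h2p := hp.two_le
  have he0 := Nat.card_pos (α := E)
  obtain ⟨⟨z, hz⟩, hz'⟩ := exists_prime_orderOf_dvd_card' 2 he.two_dvd
  rw [Subgroup.orderOf_mk] at hz'
  have hz1 : z ≠ 1 := by rintro rfl; simp at hz'
  have hst : ∀ a b : X, b ≠ a → Nat.card (stabilizer G (a, b)) * (p * (p - 1)) = Nat.card G :=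
    fun a b h => by
      rw [← (stabilizer G (a, b)).card_mul_index, index_stabilizer, show orbit G (a, b) =
        ↑(Finset.univ : Finset X).offDiag from Set.ext fun c => ⟨?_, fun hc => ?_⟩,
        Set.ncard_coe_finset, Finset.offDiag_card, Finset.card_univ, ← Nat.card_eq_fintype_card, hX,
        Nat.mul_sub_one]
      · rintro ⟨g, rfl⟩
        simpa using h.symm
      · obtain ⟨g, h3, h4⟩ := h2 h.symm (show c.1 ≠ c.2 by simpa using hc)
        exact ⟨g, Prod.ext h3 h4⟩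
  obtain ⟨a₀, b₀, h0⟩ := Finite.one_lt_card_iff_nontrivial.1 (hX ▸ hp.one_lt) |>.exists_pair_ne
  set m := Nat.card (stabilizer G (b₀, a₀))
  have hm := hst _ _ h0
  have hpp : 0 < p * (p - 1) := Nat.mul_pos hp.pos (by omega)
  have hm' : ∀ a b : X, b ≠ a → Nat.card (stabilizer G (a, b)) = m := fun a b h =>
    Nat.eq_of_mul_eq_mul_right hpp ((hst a b h).trans hm.symm)
  have h3 : ∀ g, IsConj z g → g * g = 1 ∧ Nat.card (fixedBy X g) = 1 := fun g hg => by
    obtain ⟨c, rfl⟩ := isConj_iff.1 hg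
    refine ⟨by rw [conj_mul, ← sq, ← hz', pow_orderOf_eq_one]; simp, ?_⟩
    rw [← smul_fixedBy, Nat.card_coe_set_eq, Set.ncard_smul_set, ← Nat.card_coe_set_eq, hf z hz hz1]
  have h4 : ∑ a : X, {g | IsConj z g ∧ g • a ≠ a}.ncard =
      (Subgroup.centralizer ({z} : Set G)).index * (p - 1) := by
    simp only [Set.ncard_eq_toFinset_card', Set.toFinset_ofPred, Finset.card_filter, ite_and]
    rw [Finset.sum_comm, ← CT.card_conj_eq_index, Nat.card_eq_fintype_card, Fintype.card_subtype,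
      ← smul_eq_mul, ← Finset.sum_const, Finset.sum_filter]
    refine Finset.sum_congr rfl fun g _ => ?_
    split_ifs with h
    · rw [← Finset.card_filter, ← Fintype.card_subtype, Fintype.card_subtype_compl,
        ← Nat.card_eq_fintype_card, ← Nat.card_eq_fintype_card, hX, ← (h3 g h).2]
      rfl
    · simp
  have h5 : ∀ a : X, {g | IsConj z g ∧ g • a ≠ a} ⊆ {g | g • a ≠ a ∧ g • g • a = a} :=
    fun a g hg => ⟨hg.2, by rw [← mul_smul, (h3 g hg.1).1, one_smul]⟩
  have h6 : ∀ a : X, {g : G | g • a ≠ a ∧ g • g • a = a}.ncard ≤ (p - 1) * m := fun a =>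
    hX ▸ ncard_swap_le a fun b hb => (hm' a b hb).le
  have h7 : Nat.card G ≤ 2 * Nat.card E * (Subgroup.centralizer ({z} : Set G)).index := by
    rw [← (Subgroup.centralizer ({z} : Set G)).card_mul_index, ← D.card]
    exact Nat.mul_le_mul_right _ (Subgroup.card_le_of_le fun g hg => D.ti z hz hz1 g (by
      rwa [mul_assoc, ← Subgroup.mem_centralizer_singleton_iff.1 hg, inv_mul_cancel_left]))
  have h8 : ∑ _ : X, (p - 1) * m = Nat.card G := by
    rw [Finset.sum_const, Finset.card_univ, ← Nat.card_eq_fintype_card, hX, ← hm, smul_eq_mul]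
    ring
  have h9 := fun a (_ : a ∈ Finset.univ) => (Set.ncard_le_ncard (h5 a)).trans (h6 a)
  have h10 := Finset.sum_le_sum h9
  obtain rfl : t = 2 := by
    rw [h4, h8, show p - 1 = Nat.card E * t by omega] at h10
    have := Nat.le_of_mul_le_mul_left (c := Nat.card E *
      (Subgroup.centralizer ({z} : Set G)).index) (a := t) (b := 2) (by linarith)
      (Nat.mul_pos he0 (Nat.pos_of_ne_zero Subgroup.index_ne_zero_of_finite))
    obtain ⟨r, rfl⟩ := ht'
    obtain rfl | rfl : r = 0 ∨ r = 1 := by omega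
    · omega
    · rfl
  have sw : ∀ g (a : X), g • a ≠ a → g • g • a = a → IsConj z g := fun g a h h' =>
    ((Set.eq_of_subset_of_ncard_le (h5 a) ((h6 a).trans ((Finset.sum_eq_sum_iff_of_le h9).1
      (h10.antisymm (by rw [h4, h8, show p - 1 = 2 * Nat.card E by omega]; linarith))
        a (Finset.mem_univ a)).ge)).ge ⟨h, h'⟩).1
  have inv : ∀ g : G, g ≠ 1 → g * g = 1 → IsConj z g := fun g h h' => by
    obtain ⟨a, ha⟩ := not_forall.1 (mt (eq_of_smul_eq_smul (α := X) (m₁ := g) (m₂ := 1)) h)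
    exact sw g a (by simpa using ha) (by rw [← mul_smul, h', one_smul])
  have one : ∀ g : G, Nat.card (fixedBy X g) = 1 → ∀ {a b : X}, g • a = a → g • b = b → a = b :=
    fun g h a b ha hb => congrArg Subtype.val
      ((Nat.card_eq_one_iff_unique.1 h).1.elim ⟨a, ha⟩ ⟨b, hb⟩)
  have h11 : ∀ {x : G} {a b : X}, a ≠ b → x • a = a → x • b = b → x ≠ 1 → ∀ y g : G, y ≠ 1 →
      g⁻¹ * y * g ∈ E → y * x ≠ x * y := fun {x a b} hab ha hb hx y g hy h h' => by
    have h11 := D.ti _ h (by simpa [mul_eq_one_iff_eq_inv] using hy) (g⁻¹ * x * g) (by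
      rwa [show (g⁻¹ * x * g)⁻¹ * (g⁻¹ * y * g) * (g⁻¹ * x * g) = g⁻¹ * (x⁻¹ * (y * x)) * g by group,
        h', inv_mul_cancel_left])
    refine hab (one x (h3 x (inv x hx (by_contra fun h12 => hab ?_))).2 ha hb)
    exact (smul_left_cancel_iff g⁻¹).1 (one _ (hf _ ((D.mul_mem_iff h11 h11).2 Iff.rfl) fun h =>
      h12 ((MulAut.conj g⁻¹).injective (by simpa [mul_assoc] using h))) (by simp [mul_smul, ha])
      (by simp [mul_smul, hb]))
  have h12 : ∀ {w x : G} {a b : X}, a ≠ b → w • a = b → w • b = a → x • a = a → x • b = b →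
      w * x = x⁻¹ * w := fun {w x a b} hab h1 h2 h4 h5 => by
    have h6 := (h3 w (sw w a (h1 ▸ hab.symm) (by rw [h1, h2]))).1
    have h7 := (h3 (w * x) (sw _ a (by rw [mul_smul, h4, h1]; exact hab.symm)
      (by simp [mul_smul, *]))).1
    rw [eq_inv_of_mul_eq_one_left h7, mul_inv_rev, ← eq_inv_of_mul_eq_one_left h6]
  have h13 : ∀ x : stabilizer G (b₀, a₀), x ≠ 1 → Nat.card (fixedBy X x) = 2 := fun x hx => by
    have hx' : x.1 ≠ 1 := by simpa using hx
    have hb : x.1 • b₀ = b₀ := congrArg Prod.fst x.2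
    have ha : x.1 • a₀ = a₀ := congrArg Prod.snd x.2
    obtain ⟨w, h14, h15⟩ := h2 h0 h0.symm
    have h16 : stabilizer G (b₀, a₀) = Subgroup.centralizer {x.1} := by
      refine Subgroup.eq_of_le_of_card_ge (fun d hd => ?_) (Nat.le_of_dvd Nat.card_pos
        (Nat.Coprime.dvd_of_dvd_mul_right (Nat.coprime_of_dvd fun r hr h h' => ?_)
          (hm ▸ Subgroup.card_subgroup_dvd_card _)))
      · have h16 := h12 h0 h14 h15 (x := d * x) (congrArg Prod.snd (mul_mem hd x.2))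
          (congrArg Prod.fst (mul_mem hd x.2))
        rw [← mul_assoc, h12 h0 h14 h15 (congrArg Prod.snd hd) (congrArg Prod.fst hd), mul_assoc,
          h12 h0 h14 h15 ha hb, ← mul_assoc, mul_left_inj, ← mul_inv_rev, inv_inj] at h16
        exact Subgroup.mem_centralizer_singleton_iff.2 h16.symm
      have : Fact r.Prime := ⟨hr⟩
      obtain ⟨⟨y, hy⟩, hy'⟩ := exists_prime_orderOf_dvd_card' r h
      rw [Subgroup.orderOf_mk] at hy'
      rw [Subgroup.mem_centralizer_singleton_iff] at hy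
      have hy1 : y ≠ 1 := by rintro rfl; exact hr.ne_one (by simpa using hy'.symm)
      rcases (Nat.Prime.dvd_mul hr).1 h' with h' | h'
      · obtain rfl := (Nat.prime_dvd_prime_iff_eq hr hp).1 h'
        have h17 : ¬ r ∣ orderOf x.1 := fun h => (hP _ h).2 _ ha
        have h18 : Commute y x.1 := hy
        have h19 := (h18.orderOf_mul_eq_mul_orderOf_of_coprime (hy' ▸ hr.coprime_iff_not_dvd.2 h17))
        rw [(hP _ (h19 ▸ hy' ▸ dvd_mul_right _ _)).1, hy'] at h19
        exact hx' (orderOf_eq_one_iff.1 (Nat.eq_of_mul_eq_mul_left hr.pos (by omega)))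
      rcases hr.eq_two_or_odd' with rfl | h17
      · obtain ⟨c, hc⟩ := isConj_iff.1 (inv y hy1 (by rw [← sq, ← hy', pow_orderOf_eq_one]))
        exact h11 h0 ha hb hx' y c hy1 (by simpa [← hc, mul_assoc] using hz) hy
      obtain ⟨⟨u, hu⟩, hu'⟩ := exists_prime_orderOf_dvd_card' r
        ((Nat.coprime_two_right.2 h17).dvd_of_dvd_mul_right (m := Nat.card E) (by
          rwa [show p - 1 = Nat.card E * 2 by omega] at h'))
      rw [Subgroup.orderOf_mk] at hu'
      obtain ⟨q, hq⟩ := (IsPGroup.of_card (p := r) (G := Subgroup.zpowers y) (n := 1)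
        (by rw [Nat.card_zpowers, hy', pow_one])).nonempty_fixed_point_of_prime_not_dvd_card (G ⧸ E)
        (hr.coprime_iff_not_dvd.1 (hu' ▸ D.coprime_index hu (hu' ▸ h17)))
      obtain ⟨g, rfl⟩ := QuotientGroup.mk_surjective q
      exact h11 h0 ha hb hx' y g hy1 (by
        simpa [mul_assoc] using QuotientGroup.eq.1 (hq ⟨y, Subgroup.mem_zpowers y⟩).symm) hy
    refine (Nat.card_coe_set_eq _).trans (Set.ncard_eq_two.2 ⟨a₀, b₀, h0, Set.ext fun c =>
      ⟨fun hc => or_iff_not_imp_left.2 fun h => ?_, by rintro (rfl | rfl) <;> assumption⟩⟩)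
    obtain ⟨w', h17, h18⟩ := h2 h (Ne.symm h)
    have h19 : w * w' ∈ stabilizer G (b₀, a₀) := h16.ge (Subgroup.mem_centralizer_singleton_iff.2 (by
      rw [mul_assoc, h12 h h17 h18 hc ha, ← mul_assoc, h12 h0 h14 h15 (x := x.1⁻¹)
        (by simp [inv_smul_eq_iff, ha]) (by simp [inv_smul_eq_iff, hb]), inv_inv, mul_assoc]))
    exact (smul_left_cancel_iff (w * w')).1 (by
      rw [mul_smul, h17, h14]; exact (congrArg Prod.fst h19).symm)
  have h14 := card_dvd_of_fixedBy h13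
  have h15 : 0 < m := Nat.card_pos
  obtain rfl : n = 2 * m := Nat.eq_of_mul_eq_mul_left (Nat.mul_pos hp.pos he0) (by
    rw [← hG, ← hm, show p - 1 = Nat.card E * 2 by omega]; ring)
  have h16 : m ∣ p - 2 := (Nat.dvd_add_left (dvd_mul_right m 2)).1 (by
    rwa [hX, show p + (m - 1) * 2 = p - 2 + m * 2 by omega] at h14)
  obtain ⟨r, hr⟩ := he
  have h17 := Nat.le_of_dvd (by omega) h16
  obtain ⟨c, hc⟩ := (Nat.modEq_iff_dvd' (by omega)).1 hn.symm
  obtain rfl : c = 1 := by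
    rcases c with _ | _ | c
    · omega
    · rfl
    · rw [mul_add, mul_add] at hc; omega
  have h18 := Nat.le_of_dvd (by omega) ((Nat.dvd_add_right h16).1
    (show p - 2 + 3 = 2 * m by omega ▸ dvd_mul_left m 2))
  omega

end DTI

end GT
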